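import Mathlib
import Cfsg.Agent.Lib.Helper14.OCls.Final

/-!
# An isometry of the 4-dimensional minus-type space with irreducible characteristic polynomial
and odd prime order `r ∣ q² + 1` (coprime to `q` and to `q - 1`)
-/

set_option autoImplicit false

namespace Cfsg.Agent.Lib.Helper42.OMG

open Matrix Polynomial Cfsg.Agent.Lib.Helper40.PrimeOrderGL Cfsg.Agent.Lib.Helper40.DualPoly
  Cfsg.Agent.Lib.Helper14.OCls

universe u

/-- `q² + 1` has an odd prime divisor. -/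
theorem exists_odd_prime_dvd_sq_add_one (q : ℕ) (hq : 2 ≤ q) :
    ∃ r : ℕ, r.Prime ∧ r ≠ 2 ∧ r ∣ q ^ 2 + 1 := by
  rcases Nat.even_or_odd q with he | ho
  · have hodd : Odd (q ^ 2 + 1) := Even.add_one (Nat.even_pow.mpr ⟨he, two_ne_zero⟩)
    have hne1 : q ^ 2 + 1 ≠ 1 := by
      have : 0 < q ^ 2 := by positivity
      omega
    refine ⟨(q ^ 2 + 1).minFac, Nat.minFac_prime hne1, ?_, Nat.minFac_dvd _⟩
    intro h2
    have h3 : 2 ∣ q ^ 2 + 1 := by
      have h4 := Nat.minFac_dvd (q ^ 2 + 1)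
      rw [h2] at h4
      exact h4
    exact (Nat.not_even_iff_odd.mpr hodd) (even_iff_two_dvd.mpr h3)
  · obtain ⟨c, rfl⟩ := ho
    have hc : 1 ≤ c := by omega
    have hcc : 1 ≤ c * c := Nat.mul_pos hc hc
    have hs : (2 * c + 1) ^ 2 + 1 = 2 * (2 * (c * c + c) + 1) := by ring
    have hne1 : 2 * (c * c + c) + 1 ≠ 1 := by omega
    refine ⟨(2 * (c * c + c) + 1).minFac, Nat.minFac_prime hne1, ?_, ?_⟩
    · intro h2
      have h3 : 2 ∣ 2 * (c * c + c) + 1 := by
        have h4 := Nat.minFac_dvd (2 * (c * c + c) + 1)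
        rw [h2] at h4
        exact h4
      omega
    · rw [hs]
      exact Dvd.dvd.mul_left (Nat.minFac_dvd _) 2

/-- An isometry of the 4-dimensional minus-type space of odd prime order `r` (coprime to `q`
and `q - 1`) whose characteristic polynomial is irreducible. -/
theorem exists_irr4 {F : Type u} [Field F] [Fintype F] (a b : F) (hab : Aniso a b) :
    ∃ (r : ℕ) (g : Matrix ((Fin 1 ⊕ Fin 1) ⊕ Fin 2) ((Fin 1 ⊕ Fin 1) ⊕ Fin 2) F),
      r.Prime ∧ r ≠ 2 ∧ r.Coprime (Fintype.card F) ∧ r.Coprime (Fintype.card F - 1) ∧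
      g ^ r = 1 ∧
      (∀ v, Cfsg.quadFormMinus 1 F a b (g *ᵥ v) = Cfsg.quadFormMinus 1 F a b v) ∧
      Irreducible g.charpoly := by
  classical
  obtain ⟨p, hp⟩ := CharP.exists F
  have : Fact p.Prime := ⟨CharP.char_is_prime F p⟩
  have hq2 : 2 ≤ Fintype.card F := Fintype.one_lt_card
  obtain ⟨r, hr, hr2, hrd⟩ := exists_odd_prime_dvd_sq_add_one (Fintype.card F) hq2
  have : Fact r.Prime := ⟨hr⟩
  have hqr : ((Fintype.card F : ℕ) : ZMod r) ^ 2 = -1 := by
    have h0 : ((Fintype.card F ^ 2 + 1 : ℕ) : ZMod r) = 0 := (ZMod.natCast_eq_zero_iff _ _).mpr hrd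
    push_cast at h0
    linear_combination h0
  have hne : (-1 : ZMod r) ≠ 1 := by
    intro h
    have h2 : ((2 : ℕ) : ZMod r) = 0 := by
      push_cast
      linear_combination (-1 : ZMod r) * h
    rw [ZMod.natCast_eq_zero_iff] at h2
    have h3 := Nat.le_of_dvd (by norm_num) h2
    have h4 := hr.two_le
    omega
  have hord : orderOf ((Fintype.card F : ℕ) : ZMod r) = 4 := by
    have h := orderOf_eq_prime_pow (p := 2) (n := 1) (x := ((Fintype.card F : ℕ) : ZMod r))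
      (by rw [pow_one, hqr]; exact hne)
      (by
        have h4 : (2 : ℕ) ^ (1 + 1) = 2 * 2 := by norm_num
        rw [h4, pow_mul, hqr]
        norm_num)
    rw [h]
    norm_num
  have hq0 : ((Fintype.card F : ℕ) : ZMod r) ≠ 0 := by
    intro h
    rw [h] at hqr
    have h5 : (0 : ZMod r) = -1 := by
      rw [← hqr]
      norm_num
    have h6 : (1 : ZMod r) = 0 := by linear_combination h5
    exact one_ne_zero h6
  have hdvd : 4 ∣ r - 1 := by
    rw [← hord]
    exact ZMod.orderOf_dvd_card_sub_one hq0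
  obtain ⟨t, ht⟩ := hdvd
  have hrq : ¬ r ∣ Fintype.card F := by
    intro hd
    have h1 : r ∣ Fintype.card F ^ 2 := dvd_pow hd two_ne_zero
    have h2 : r ∣ 1 := (Nat.dvd_add_right h1).mp hrd
    exact hr.one_lt.ne' (Nat.dvd_one.mp h2)
  have hrp : r ≠ p := by
    rintro rfl
    obtain ⟨f, -, hf⟩ := FiniteField.card F r
    apply hrq
    rw [hf]
    exact dvd_pow_self _ f.ne_zero
  have hrq1 : ¬ r ∣ Fintype.card F - 1 := by
    intro hd
    have h1 : ((Fintype.card F - 1 : ℕ) : ZMod r) = 0 := (ZMod.natCast_eq_zero_iff _ _).mpr hd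
    rw [Nat.cast_sub (by omega), Nat.cast_one, sub_eq_zero] at h1
    rw [h1, one_pow] at hqr
    exact hne hqr.symm
  obtain ⟨S, hS, hScard, hrF, -, -, ht0, dg, -, -, -, -, hself⟩ :=
    exists_setup (F := F) (p := p) (q := Fintype.card F) rfl r 4 t hr hr2 hrp hord.symm
      (by rw [ht]; ring)
  obtain ⟨π₀, hπ₀⟩ := Finset.card_pos.mp (hScard ▸ ht0)
  obtain ⟨aa, haa⟩ : ∃ aa : S → ℕ, aa = fun π => if π = ⟨π₀, hπ₀⟩ then 1 else 0 := ⟨_, rfl⟩
  have hsum : ∑ π, aa π = 1 := by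
    rw [Finset.sum_eq_single (⟨π₀, hπ₀⟩ : S)]
    · rw [haa]; simp
    · intro π _ hπ
      rw [haa]; simp [hπ]
    · intro h
      exact absurd (Finset.mem_univ _) h
  obtain ⟨g, hgr, hgQ, hgc⟩ := exEvenMinus (F := F) p S r 4 hS hr hr2 hrF hord.symm
    (by decide) (hself (by decide)) 1 a b hab aa (by rw [hsum]) (by
      intro _
      rw [hsum]
      exact odd_one)
  refine ⟨r, g, hr, hr2, (Nat.Prime.coprime_iff_not_dvd hr).mpr hrq,
    (Nat.Prime.coprime_iff_not_dvd hr).mpr hrq1, hgr, hgQ, ?_⟩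
  rw [hgc, hsum]
  have hchi : chi S aa (2 * 1 + 2 - 4 * 1) = π₀ := by
    unfold chi
    rw [show 2 * 1 + 2 - 4 * 1 = 0 from rfl, pow_zero, one_mul,
      Finset.prod_eq_single (⟨π₀, hπ₀⟩ : S)]
    · rw [haa]; simp
    · intro π _ hπ
      rw [haa]; simp [hπ]
    · intro h
      exact absurd (Finset.mem_univ _) h
  rw [hchi]
  exact hS.irred π₀ hπ₀

end Cfsg.Agent.Lib.Helper42.OMG
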